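import Cfsg.Agent.Lib.Coprime.HallAmbient
import Cfsg.Agent.Lib.Core.Basic
import Cfsg.Prelude.Def_SolvableStructure

/-!
Carter subgroups of finite solvable groups: existence (`exists_isCarterSubgroup`), conjugacy
(`exists_conj_eq_of_isCarterSubgroup`), overgroups are self-normalizing, images are Carter.
-/

set_option autoImplicit false

namespace CfsgLib.Coprime

open Subgroup Cfsg
open scoped Pointwise

universe u

variable {G : Type u} [Group G]

theorem map_conj_smul {H : Type*} [Group H] (f : G →* H) (g : G) (K : Subgroup G) :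
    (MulAut.conj g • K).map f = MulAut.conj (f g) • K.map f := by
  rw [conj_smul_eq_map, conj_smul_eq_map, map_map, map_map]
  congr 1
  ext x
  simp

theorem conj_smul_normalizer (g : G) (K : Subgroup G) :
    MulAut.conj g • normalizer (K : Set G) =
      normalizer ((MulAut.conj g • K : Subgroup G) : Set G) :=
  map_equiv_normalizer_eq K (MulAut.conj g)

/-- A Hall subgroup `H` of `M` normalized by `M` is normalized by `N(M)`. -/
theorem normalizer_le_normalizer_of_isPiHallOf {π : Set ℕ} [Finite G] {H M : Subgroup G}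
    (hH : IsPiHallOf π H M) (hn : M ≤ normalizer (H : Set G)) :
    normalizer (M : Set G) ≤ normalizer (H : Set G) := by
  intro g hg
  have h1 := isPiHallOf_conj_smul hH hg
  rw [mem_normalizer_iff_conj_smul_eq]
  exact eq_of_le_of_card_ge (le_of_isPiHallOf_of_le_normalizer' hH h1.1
    (isPiHallOf_iff.mp h1).2.1 (h1.1.trans hn)) (card_conj_smul _ _).ge

/-- A Hall subgroup of a nilpotent group is normal. -/
theorem le_normalizer_of_isPiHallOf_of_isNilpotent {π : Set ℕ} [Finite G] {H K : Subgroup G}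
    (hK : Group.IsNilpotent K) (hH : IsPiHallOf π H K) : K ≤ normalizer (H : Set G) := by
  by_contra hc
  have h1 : K ⊓ normalizer (H : Set G) < K := inf_lt_left.mpr hc
  have h2 := lt_inf_normalizer_of_isNilpotent hK h1
  exact h2.not_ge (inf_le_inf_left _ (normalizer_le_normalizer_of_isPiHallOf
    (isPiHallOf_of_le hH (le_inf hH.1 le_normalizer) inf_le_left) inf_le_right))

/-- If `N` is a normal `p`-subgroup with `KN/N` nilpotent, the normalizer in `K` of a Hall
`p'`-subgroup of `K` is nilpotent. -/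
theorem isNilpotent_inf_normalizer_of_isPiHallOf [Finite G] {p : ℕ} (hp : p.Prime)
    {N K Q : Subgroup G} [N.Normal] (hN : IsPGroup p N)
    (hK : Group.IsNilpotent (K.map (QuotientGroup.mk' N))) (hQ : IsPiHallOf {p}ᶜ Q K) :
    Group.IsNilpotent (K ⊓ normalizer (Q : Set G) : Subgroup G) := by
  have : Fact p.Prime := ⟨hp⟩
  set M := K ⊓ normalizer (Q : Set G) with hM
  have hQM : Q ≤ M := le_inf hQ.1 le_normalizer
  have : (Q.subgroupOf M).Normal := normal_subgroupOf_of_le_normalizer inf_le_right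
  have hP : IsPGroup p (M ⧸ Q.subgroupOf M) := by
    rw [IsPGroup.iff_card]
    refine ⟨_, Nat.eq_prime_pow_of_unique_prime_dvd Nat.card_pos.ne' fun hq hd => ?_⟩
    simpa using (isPiHallOf_iff.mp (isPiHallOf_of_le hQ hQM inf_le_left)).2.2 _ hq hd
  have := hP.isNilpotent
  let f : M →* K.map (QuotientGroup.mk' N) :=
    ((QuotientGroup.mk' N).subgroupMap K).comp (inclusion inf_le_left)
  refine Subgroup.isNilpotent_of_ker_le_center (f.prod (QuotientGroup.mk' (Q.subgroupOf M))) ?_
  intro x hx
  rw [MonoidHom.ker_prod] at hx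
  have h1 : (x : G) ∈ N := (QuotientGroup.eq_one_iff _).mp (congrArg Subtype.val hx.1)
  have h2 : (x : G) ∈ Q := (QuotientGroup.eq_one_iff (N := Q.subgroupOf M) x).mp hx.2
  have h3 : N ⊓ Q = ⊥ := inf_eq_bot_of_coprime
    ((isPiNum_card_of_isPGroup hp hN (π := {p}) rfl).coprime (isPiHallOf_iff.mp hQ).2.1)
  have h4 : (x : G) ∈ N ⊓ Q := ⟨h1, h2⟩
  rw [h3, mem_bot] at h4
  rw [show x = 1 from Subtype.ext h4]
  exact one_mem _

theorem isCarter_conj_smul {C : Subgroup G} (h : IsCarterSubgroup C) (g : G) :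
    IsCarterSubgroup (MulAut.conj g • C) := by
  have := h.1
  refine ⟨Group.nilpotent_of_mulEquiv (equivSMul (MulAut.conj g) C), ?_⟩
  rw [← conj_smul_normalizer, h.2]

theorem isCarter_subgroupOf {C K : Subgroup G} (h : IsCarterSubgroup C) (hCK : C ≤ K) :
    IsCarterSubgroup (C.subgroupOf K) := by
  have := h.1
  refine ⟨Group.nilpotent_of_mulEquiv (subgroupOfEquivOfLe hCK).symm, ?_⟩
  rw [← subgroupOf_normalizer_eq hCK, h.2]

theorem isCarter_map_of_normalizer_eq {C N : Subgroup G} [N.Normal] (h : Group.IsNilpotent C)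
    (hn : normalizer ((C ⊔ N : Subgroup G) : Set G) = C ⊔ N) :
    IsCarterSubgroup (C.map (QuotientGroup.mk' N)) := by
  refine ⟨Group.nilpotent_of_surjective _ ((QuotientGroup.mk' N).subgroupMap_surjective C), ?_⟩
  apply comap_injective (QuotientGroup.mk'_surjective N)
  rw [comap_normalizer_eq_of_surjective _ (QuotientGroup.mk'_surjective N), comap_map_eq,
    QuotientGroup.ker_mk', hn]

theorem exists_isCarter_aux (n : ℕ) : ∀ (G : Type u) [Group G] [Finite G], Nat.card G = n →
    Group.IsSolvable G → ∃ C : Subgroup G, IsCarterSubgroup C := by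
  induction n using Nat.strong_induction_on with
  | _ n ih =>
  intro G _ _ hn hs
  rcases subsingleton_or_nontrivial G with hG | hG
  · exact ⟨⊤, inferInstance, Subsingleton.elim _ _⟩
  obtain ⟨p, N, hp, hNc, hN0, hNp, -⟩ := exists_characteristic_pgroup G
  obtain ⟨K', hK'⟩ := ih _ (hn ▸ Core.card_quotient_lt_of_ne_bot hN0) (G ⧸ N) rfl inferInstance
  set K := K'.comap (QuotientGroup.mk' N) with hK
  have hKK : K.map (QuotientGroup.mk' N) = K' :=
    map_comap_eq_self_of_surjective (QuotientGroup.mk'_surjective N) _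
  have hNK : N ≤ K := by
    intro x hx
    rw [hK, mem_comap, QuotientGroup.mk'_apply, (QuotientGroup.eq_one_iff x).mpr hx]
    exact one_mem _
  obtain ⟨Q, hQ⟩ := exists_isPiHallOf (M := K) {p}ᶜ inferInstance
  refine ⟨K ⊓ normalizer (Q : Set G),
    isNilpotent_inf_normalizer_of_isPiHallOf hp hNp (hKK ▸ hK'.1) hQ, ?_⟩
  have h1 : K ≤ normalizer ((Q ⊔ N : Subgroup G) : Set G) := by
    have := le_normalizer_comap_of_le (QuotientGroup.mk' N)
      (le_normalizer_of_isPiHallOf_of_isNilpotent (hKK ▸ hK'.1)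
        (isPiHallOf_map (QuotientGroup.mk' N) hQ))
    rwa [comap_map_eq, QuotientGroup.ker_mk'] at this
  have h2 : K ≤ N ⊔ normalizer (Q : Set G) :=
    (le_sup_normalizer_of_isPiHallOf inferInstance
      (isPiHallOf_of_le hQ le_sup_left (sup_le hQ.1 hNK)) h1).trans
      (sup_le (sup_le (le_normalizer.trans le_sup_right) le_sup_left) le_sup_right)
  have h3 : N ⊔ (K ⊓ normalizer (Q : Set G)) = K := by
    refine le_antisymm (sup_le hNK inf_le_left) fun x hx => ?_
    obtain ⟨a, ha, b, hb, rfl⟩ := mem_sup_of_normal_left.mp (h2 hx)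
    refine mul_mem_sup ha ⟨?_, hb⟩
    have := K.mul_mem (K.inv_mem (hNK ha)) hx
    rwa [inv_mul_cancel_left] at this
  refine le_antisymm (le_inf ?_ (normalizer_le_normalizer_of_isPiHallOf
    (isPiHallOf_of_le hQ (le_inf hQ.1 le_normalizer) inf_le_left) inf_le_right)) le_normalizer
  have h4 := le_normalizer_sup (A := normalizer ((K ⊓ normalizer (Q : Set G) : Subgroup G) : Set G))
    (H := N) le_normalizer_of_normal le_rfl
  rwa [h3, hK, ← comap_normalizer_eq_of_surjective _ (QuotientGroup.mk'_surjective N),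
    hK'.2] at h4

/-- A finite solvable group has a Carter subgroup. -/
theorem exists_isCarterSubgroup (G : Type u) [Group G] [Finite G] [h : Group.IsSolvable G] :
    ∃ C : Subgroup G, IsCarterSubgroup C := exists_isCarter_aux _ G rfl h

/-- If `G = C N` with `C` a Carter subgroup and `N` a normal `p`-subgroup, then `C` is the
normalizer of a Hall `p'`-subgroup of `G`. -/
theorem exists_isPiHall_normalizer_eq_of_isCarter [Finite G] {p : ℕ} (hp : p.Prime)
    {N C : Subgroup G} [N.Normal] (hN : IsPGroup p N) (hC : IsCarterSubgroup C)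
    (hCN : C ⊔ N = ⊤) : ∃ Q : Subgroup G, IsPiHall {p}ᶜ Q ∧ normalizer (Q : Set G) = C := by
  have := hC.1
  obtain ⟨Q, hQ⟩ := exists_isPiHallOf (M := C) {p}ᶜ inferInstance
  have hQ' : IsPiHallOf {p}ᶜ Q ⊤ := by
    refine isPiHallOf_trans hQ le_top ?_
    rw [compl_compl]
    refine (isPiNum_card_of_isPGroup hp hN (π := {p}) rfl).of_dvd ?_
    have h1 := Core.card_sup_mul_card_inf_of_normal C N
    rw [hCN, ← card_mul_relIndex_of_le (le_top : C ≤ ⊤), mul_assoc] at h1
    exact Dvd.intro _ (Nat.eq_of_mul_eq_mul_left Nat.card_pos h1)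
  refine ⟨Q, isPiHallOf_top.mp hQ', ?_⟩
  have h1 := isNilpotent_inf_normalizer_of_isPiHallOf hp hN (K := ⊤) (by
    rw [← hCN, Subgroup.map_sup, (map_eq_bot_iff N).mpr (QuotientGroup.ker_mk' N).ge, sup_bot_eq]
    exact Group.nilpotent_of_surjective _ ((QuotientGroup.mk' N).subgroupMap_surjective C)) hQ'
  rw [top_inf_eq] at h1
  have h2 := le_normalizer_of_isPiHallOf_of_isNilpotent hC.1 hQ
  by_contra hne
  have h3 := lt_inf_normalizer_of_isNilpotent h1 (lt_of_le_of_ne h2 (Ne.symm hne))
  rw [hC.2] at h3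
  exact h3.not_ge inf_le_right

theorem conj_isCarter_aux (n : ℕ) : ∀ (G : Type u) [Group G] [Finite G], Nat.card G = n →
    Group.IsSolvable G → ∀ C D : Subgroup G, IsCarterSubgroup C → IsCarterSubgroup D →
      ∃ g : G, MulAut.conj g • C = D := by
  induction n using Nat.strong_induction_on with
  | _ n ih =>
  intro G _ _ hn hs
  rcases subsingleton_or_nontrivial G with hG | hG
  · exact fun C D _ _ => ⟨1, Subsingleton.elim _ _⟩
  have hsub : ∀ K C D : Subgroup G, K ≠ ⊤ → C ≤ K → D ≤ K → IsCarterSubgroup C →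
      IsCarterSubgroup D → ∃ g ∈ K, MulAut.conj g • C = D := by
    intro K C D hK hCK hDK hC hD
    obtain ⟨g, hg⟩ := ih _ (hn ▸ Core.card_lt_of_ne_top hK) K rfl inferInstance _ _
      (isCarter_subgroupOf hC hCK) (isCarter_subgroupOf hD hDK)
    refine ⟨g, g.2, ?_⟩
    have := congrArg (Subgroup.map K.subtype) hg
    rwa [map_conj_smul, map_subgroupOf_eq_of_le hCK, map_subgroupOf_eq_of_le hDK] at this
  have hover : ∀ K C : Subgroup G, C ≤ K → IsCarterSubgroup C → normalizer (K : Set G) = K := by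
    intro K C hCK hC
    by_cases hK : K = ⊤
    · rw [hK]; exact normalizer_eq_top _
    refine le_antisymm (fun g hg => ?_) le_normalizer
    obtain ⟨k, hk, h⟩ := hsub K C _ hK hCK (conj_smul_le_of_mem_normalizer hg hCK) hC
      (isCarter_conj_smul hC g)
    have h1 : k⁻¹ * g ∈ normalizer (C : Set G) := by
      rw [mem_normalizer_iff_conj_smul_eq, map_mul, mul_smul, ← h, map_inv, inv_smul_smul]
    rw [hC.2] at h1
    have := K.mul_mem hk (hCK h1)
    rwa [mul_inv_cancel_left] at this
  intro C D hC hD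
  obtain ⟨p, N, hp, hNc, hN0, hNp, -⟩ := exists_characteristic_pgroup G
  obtain ⟨g, hg⟩ := ih _ (hn ▸ Core.card_quotient_lt_of_ne_bot hN0) (G ⧸ N) rfl inferInstance _ _
    (isCarter_map_of_normalizer_eq hC.1 (hover _ C le_sup_left hC))
    (isCarter_map_of_normalizer_eq hD.1 (hover _ D le_sup_left hD))
  obtain ⟨g, rfl⟩ := QuotientGroup.mk'_surjective N g
  rw [← map_conj_smul] at hg
  have h1 := congrArg (Subgroup.comap (QuotientGroup.mk' N)) hg
  rw [comap_map_eq, comap_map_eq, QuotientGroup.ker_mk'] at h1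
  have hC' := isCarter_conj_smul hC g
  suffices ∃ k : G, MulAut.conj k • MulAut.conj g • C = D by
    obtain ⟨k, hk⟩ := this
    exact ⟨k * g, by rw [map_mul, mul_smul, hk]⟩
  by_cases hK : D ⊔ N = ⊤
  · obtain ⟨Q, hQ, e⟩ := exists_isPiHall_normalizer_eq_of_isCarter hp hNp hC' (h1.trans hK)
    obtain ⟨Q', hQ', e'⟩ := exists_isPiHall_normalizer_eq_of_isCarter hp hNp hD hK
    obtain ⟨k, hk⟩ := exists_conj_eq_of_isPiHall hQ hQ'
    exact ⟨k, by rw [← e, ← e', conj_smul_normalizer, hk]⟩
  · obtain ⟨k, -, hk⟩ := hsub _ _ _ hK (h1 ▸ le_sup_left) le_sup_left hC' hD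
    exact ⟨k, hk⟩

/-- Carter subgroups of a finite solvable group are conjugate. -/
theorem exists_conj_eq_of_isCarterSubgroup [Finite G] [h : Group.IsSolvable G] {C D : Subgroup G}
    (hC : IsCarterSubgroup C) (hD : IsCarterSubgroup D) : ∃ g : G, MulAut.conj g • C = D :=
  conj_isCarter_aux _ G rfl h C D hC hD

/-- Two Carter subgroups of `G` inside a solvable subgroup `K` are conjugate in `K`. -/
theorem exists_mem_conj_eq_of_isCarterSubgroup [Finite G] {K C D : Subgroup G}
    (hK : Group.IsSolvable K) (hCK : C ≤ K) (hDK : D ≤ K) (hC : IsCarterSubgroup C)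
    (hD : IsCarterSubgroup D) : ∃ g ∈ K, MulAut.conj g • C = D := by
  obtain ⟨g, hg⟩ := exists_conj_eq_of_isCarterSubgroup
    (isCarter_subgroupOf hC hCK) (isCarter_subgroupOf hD hDK)
  refine ⟨g, g.2, ?_⟩
  have := congrArg (Subgroup.map K.subtype) hg
  rwa [map_conj_smul, map_subgroupOf_eq_of_le hCK, map_subgroupOf_eq_of_le hDK] at this

/-- A solvable overgroup of a Carter subgroup is self-normalizing. -/
theorem normalizer_eq_of_isCarterSubgroup_le [Finite G] {K C : Subgroup G}
    (hK : Group.IsSolvable K) (hCK : C ≤ K) (hC : IsCarterSubgroup C) :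
    normalizer (K : Set G) = K := by
  refine le_antisymm (fun g hg => ?_) le_normalizer
  obtain ⟨k, hk, h⟩ := exists_mem_conj_eq_of_isCarterSubgroup hK hCK
    (conj_smul_le_of_mem_normalizer hg hCK) hC (isCarter_conj_smul hC g)
  have h1 : k⁻¹ * g ∈ normalizer (C : Set G) := by
    rw [mem_normalizer_iff_conj_smul_eq, map_mul, mul_smul, ← h, map_inv, inv_smul_smul]
  rw [hC.2] at h1
  have := K.mul_mem hk (hCK h1)
  rwa [mul_inv_cancel_left] at this

/-- The image of a Carter subgroup of a solvable group in a quotient is a Carter subgroup. -/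
theorem isCarter_map_mk' [Finite G] [Group.IsSolvable G] {C : Subgroup G} (N : Subgroup G)
    [N.Normal] (hC : IsCarterSubgroup C) : IsCarterSubgroup (C.map (QuotientGroup.mk' N)) :=
  isCarter_map_of_normalizer_eq hC.1
    (normalizer_eq_of_isCarterSubgroup_le inferInstance le_sup_left hC)

end CfsgLib.Coprime
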