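import Cfsg.Agent.Lib.Coprime.Abelian
import Cfsg.Agent.Lib.Coprime.Hall

/-!
Intersections of Hall `p'`-subgroups are Hall subgroups; Sylow systems of solvable groups.
-/

set_option autoImplicit false

namespace CfsgLib.Coprime

open Subgroup Cfsg
open scoped Pointwise

universe u

variable {G : Type u} [Group G] [Finite G]

theorem index_inf_eq_mul_of_coprime {H K : Subgroup G} (h : H.index.Coprime K.index) :
    (H ⊓ K).index = H.index * K.index := by
  apply le_antisymm index_inf_le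
  exact Nat.le_of_dvd (Nat.pos_of_ne_zero FiniteIndex.index_ne_zero)
    (h.mul_dvd_of_dvd_of_dvd (index_dvd_of_le inf_le_left) (index_dvd_of_le inf_le_right))

/-- The intersection of Hall `q'`-subgroups over `q ∈ Q` is a Hall `Q'`-subgroup. -/
theorem isPiHall_finset_inf {H : ℕ → Subgroup G} (Q : Finset ℕ)
    (hH : ∀ q ∈ Q, IsPiHall {q}ᶜ (H q)) : IsPiHall (Q : Set ℕ)ᶜ (Q.inf H) := by
  classical
  rw [isPiHall_iff, compl_compl]
  refine ⟨fun p hp hd hpQ => (isPiHall_iff.mp (hH p hpQ)).1 p hp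
    (hd.trans (card_dvd_of_le (Finset.inf_le hpQ))) rfl, ?_⟩
  induction Q using Finset.induction_on with
  | empty => simpa using IsPiNum.one _
  | insert q Q hq ih =>
    have h1 := ih fun r hr => hH r (Finset.mem_insert_of_mem hr)
    have h2 := (isPiHall_iff.mp (hH q (Finset.mem_insert_self _ _))).2
    rw [compl_compl] at h2
    rw [Finset.inf_insert, index_inf_eq_mul_of_coprime (h2.coprime (h1.mono fun r hr hrq =>
      hq (by rw [Set.mem_singleton_iff] at hrq; exact hrq ▸ hr)))]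
    exact (h2.mono (by simp)).mul (h1.mono (by simp))

/-- Two Hall subgroups for disjoint-complement sets of primes inside a subgroup whose order
involves only primes of `π₁ ∪ π₂` factorize it. -/
theorem coe_eq_mul_of_isPiHall {π₁ π₂ : Set ℕ} {H₁ H₂ T : Subgroup G} (h₁ : IsPiHall π₁ H₁)
    (h₂ : IsPiHall π₂ H₂) (l₁ : H₁ ≤ T) (l₂ : H₂ ≤ T) (hT : IsPiNum (π₁ ∪ π₂) (Nat.card T)) :
    (T : Set G) = (H₁ : Set G) * (H₂ : Set G) := by
  apply le_antisymm
  · intro k hk
    obtain ⟨x, hx, y, hy, rfl⟩ := exists_mul_of_coprime_relIndex (H₂ := H₂) l₁ (by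
      apply Nat.coprime_of_dvd
      intro p hp d₁ d₂
      have e₁ := (isPiHall_iff.mp h₁).2 p hp (d₁.trans (relIndex_dvd_index_of_le l₁))
      have e₂ := (isPiHall_iff.mp h₂).2 p hp (d₂.trans (relIndex_dvd_index_of_le l₂))
      exact (hT p hp (d₁.trans (relIndex_dvd_card _ _))).elim e₁ e₂) hk
    exact Set.mul_mem_mul hx hy
  · rintro _ ⟨x, hx, y, hy, rfl⟩
    exact T.mul_mem (l₁ hx) (l₂ hy)

/-- A finite solvable group has a Sylow system. -/
theorem exists_sylow_system [Group.IsSolvable G] : ∃ S : (p : Nat.Primes) → Sylow (p : ℕ) G,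
    ∀ p q : Nat.Primes, (S p : Set G) * (S q : Set G) = (S q : Set G) * (S p : Set G) := by
  classical
  choose H hH using fun q : ℕ => exists_isPiHall {q}ᶜ G
  have hne : Nat.card G ≠ 0 := Nat.card_pos.ne'
  let T : Finset ℕ → Subgroup G := fun Q => ((Nat.card G).primeFactors \ Q).inf H
  have hT : ∀ Q : Finset ℕ, IsPiHall (Q : Set ℕ) (T Q) := by
    intro Q
    have h := isPiHall_iff.mp (isPiHall_finset_inf ((Nat.card G).primeFactors \ Q)
      fun q _ => hH q)
    rw [isPiHall_iff]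
    refine ⟨fun p hp hd => ?_, fun p hp hd => ?_⟩
    · have := h.1 p hp hd
      by_contra hc
      exact this (Finset.mem_coe.mpr (Finset.mem_sdiff.mpr ⟨Nat.mem_primeFactors.mpr
        ⟨hp, hd.trans (card_subgroup_dvd_card _), hne⟩, hc⟩))
    · have := h.2 p hp hd
      rw [compl_compl] at this
      exact (Finset.mem_sdiff.mp this).2
  have hmono : ∀ Q Q' : Finset ℕ, Q ⊆ Q' → T Q ≤ T Q' := fun Q Q' h =>
    Finset.inf_mono (Finset.sdiff_subset_sdiff le_rfl h)
  have hS : ∀ p : Nat.Primes, ∃ S : Sylow (p : ℕ) G, (S : Subgroup G) = T {p.1} := by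
    intro p
    have : Fact (p : ℕ).Prime := ⟨p.2⟩
    have h := isPiHall_iff.mp (hT {p.1})
    have hp : IsPGroup (p : ℕ) (T {p.1}) := by
      rw [IsPGroup.iff_card]
      refine ⟨_, Nat.eq_prime_pow_of_unique_prime_dvd Nat.card_pos.ne' fun hq hd => ?_⟩
      simpa using h.1 _ hq hd
    exact ⟨hp.toSylow fun hd => h.2 _ p.2 hd (by simp), rfl⟩
  choose S hS using hS
  refine ⟨S, fun p q => ?_⟩
  have key : ∀ p q : Nat.Primes, (S p : Set G) * (S q : Set G) = T {p.1, q.1} := by
    intro p q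
    rw [← Sylow.coe_coe, ← Sylow.coe_coe, hS, hS]
    refine (coe_eq_mul_of_isPiHall (hT _) (hT _) (hmono _ _ (by simp)) (hmono _ _ (by simp))
      ((isPiHall_iff.mp (hT _)).1.mono ?_)).symm
    intro r hr
    simpa [or_comm] using hr
  rw [key, key, Finset.pair_comm]

end CfsgLib.Coprime
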